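import Cfsg.Agent.H283.RkTwo.ExcNum
import Cfsg.Agent.OrdDiv.Table
import Cfsg.Agent.H934.OutB
import Cfsg.Agent.S0814
import Cfsg.Agent.S0000

/-!
# S3414: the small exceptions of the end step

`st_small : StSmall`.
-/

set_option autoImplicit false

namespace Cfsg.Agent.H283.RkTwo

open Cfsg Cfsg.Agent.H873.Tits Cfsg.Agent.OrdDiv

universe u

/-- the test for the order `m` -/
def pTest (n s t p m : ℕ) : Bool :=
  (List.range 60).any fun k => Nat.beq (m % p ^ k) 0 && !(Nat.beq (m % p ^ (k + 1)) 0) &&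
    (Nat.blt m (p ^ (3 * k)) ||
      Nat.blt (chN n s t ^ 3) (2 ^ (((s * t) ^ (n / 2) + (p ^ k - 1)) / p ^ k) * (1 + s) ^ 3) ||
      Nat.blt (chN n s t ^ 3) (2 ^ (((s * t) ^ (n / 2) + (p ^ k - 1)) / p ^ k) * (1 + t) ^ 3))

/-- the test for a group with trivial outer automorphism group -/
def oTest (n s t p m : ℕ) : Bool :=
  (List.range 60).any fun k => Nat.beq (m % p ^ k) 0 && !(Nat.beq (m % p ^ (k + 1)) 0) && Nat.blt (p ^ k) ((s * t) ^ (n / 2))

theorem fac_eq {p m k : ℕ} (hp : p.Prime) (hm : 0 < m) (h1 : Nat.beq (m % p ^ k) 0 = true)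
    (h2 : (!(Nat.beq (m % p ^ (k + 1)) 0)) = true) : m.factorization p = k := by
  rw [Nat.beq_eq] at h1
  have h3 : ¬ m % p ^ (k + 1) = 0 := by
    intro h
    rw [h] at h2
    exact absurd h2 (by decide)
  have h4 := (hp.pow_dvd_iff_le_factorization hm.ne').1 (Nat.dvd_of_mod_eq_zero h1)
  have h5 : ¬ k + 1 ≤ m.factorization p := fun h => h3 (Nat.mod_eq_zero_of_dvd ((hp.pow_dvd_iff_le_factorization hm.ne').2 h))
  omega

theorem pTest_sound {n s t p m u : ℕ} (hp : p.Prime) (hm : 0 < m) (h : pTest n s t p m = true)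
    (hu : (s * t) ^ (n / 2) ≤ u * p ^ m.factorization p) (h1 : 2 ^ u * (1 + s) ^ 3 ≤ chN n s t ^ 3)
    (h2 : 2 ^ u * (1 + t) ^ 3 ≤ chN n s t ^ 3) : m < p ^ (3 * m.factorization p) := by
  unfold pTest at h
  rw [List.any_eq_true] at h
  obtain ⟨k, -, hk⟩ := h
  rw [Bool.and_eq_true, Bool.and_eq_true, Bool.or_eq_true, Bool.or_eq_true, Nat.blt_eq, Nat.blt_eq, Nat.blt_eq] at hk
  obtain ⟨⟨hk1, hk2⟩, hk3⟩ := hk
  have hf := fac_eq hp hm hk1 hk2
  rw [hf] at hu ⊢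
  have hpk : 0 < p ^ k := pow_pos hp.pos k
  have hle : ((s * t) ^ (n / 2) + (p ^ k - 1)) / p ^ k ≤ u := by
    rw [← Nat.lt_succ_iff, Nat.div_lt_iff_lt_mul hpk]
    have : (u + 1) * p ^ k = u * p ^ k + p ^ k := by ring
    rw [Nat.succ_eq_add_one, this]
    omega
  have hpow : 2 ^ (((s * t) ^ (n / 2) + (p ^ k - 1)) / p ^ k) ≤ 2 ^ u := Nat.pow_le_pow_right (by norm_num) hle
  rcases hk3 with (h3 | h3) | h3
  · exact h3
  · have := Nat.mul_le_mul_right ((1 + s) ^ 3) hpow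
    omega
  · have := Nat.mul_le_mul_right ((1 + t) ^ 3) hpow
    omega

theorem oTest_sound {n s t p m u : ℕ} (hp : p.Prime) (hm : 0 < m) (h : oTest n s t p m = true)
    (hu : (s * t) ^ (n / 2) ≤ u * p ^ m.factorization p) (h1 : u ≤ 1) : False := by
  unfold oTest at h
  rw [List.any_eq_true] at h
  obtain ⟨k, -, hk⟩ := h
  rw [Bool.and_eq_true, Bool.and_eq_true, Nat.blt_eq] at hk
  obtain ⟨⟨hk1, hk2⟩, hk3⟩ := hk
  have hf := fac_eq hp hm hk1 hk2
  rw [hf] at hu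
  have : u * p ^ k ≤ 1 * p ^ k := Nat.mul_le_mul_right _ h1
  omega

/-- the finite check -/
def sChk (n s t p h : ℕ) (l : List (ℕ × ℕ)) : Bool :=
  valid l (chN n s t * (s * t) ^ (n / 2) * h) &&
    (cands l (chN n s t * (s * t) ^ (n / 2) * h)).all fun g =>
      !(Nat.beq (ordN g % chN n s t) 0) || pTest n s t p (ordN g) ||
        (decide (g = Grp.psp 3 2) && oTest n s t p (ordN g))

/-- the data of the list -/
def smallData : List ((ℕ × ℕ × ℕ × ℕ × ℕ) × List (ℕ × ℕ)) :=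
  [((4, 2, 2, 2, 1), [(2, 4), (3, 2), (5, 1)]),
   ((4, 2, 4, 2, 6), [(2, 7), (3, 4), (5, 1)]),
   ((4, 4, 4, 2, 36), [(2, 10), (3, 2), (5, 2), (17, 1)]),
   ((4, 4, 8, 2, 252), [(2, 12), (3, 5), (5, 1), (7, 1), (11, 1)]),
   ((4, 4, 16, 2, 360), [(2, 15), (3, 2), (5, 3), (13, 1), (17, 1)]),
   ((4, 8, 8, 2, 1764), [(2, 14), (3, 6), (5, 1), (7, 2), (13, 1)]),
   ((4, 8, 64, 2, 158760), [(2, 21), (3, 9), (5, 2), (7, 2), (13, 1), (19, 1)]),
   ((6, 2, 2, 2, 1), [(2, 6), (3, 3), (7, 1)]),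
   ((6, 2, 8, 2, 42), [(2, 13), (3, 5), (7, 2), (13, 1)]),
   ((8, 2, 4, 2, 6), [(2, 13), (3, 4), (5, 2), (13, 1)]),
   ((4, 3, 3, 3, 4), [(2, 7), (3, 4), (5, 1)]),
   ((4, 3, 9, 3, 32), [(2, 10), (3, 6), (5, 1), (7, 1)])]

theorem smallData_map : smallData.map (fun x => x.1) = smallList := by decide

theorem smallData_chk : smallData.all (fun x => sChk x.1.1 x.1.2.1 x.1.2.2.1 x.1.2.2.2.1 x.1.2.2.2.2 x.2) = true := by
  decide +kernel

theorem smallData_ok : ∀ x ∈ smallList, (x.1 = 4 ∨ x.1 = 6 ∨ x.1 = 8) ∧ (x.2.2.2.1 = 2 ∨ x.2.2.2.1 = 3) := by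
  decide

/-- `Out PSp_6(2) = 1` -/
theorem out_psp {T : Type u} [Group T] [Finite T] [IsSimpleGroup T] (hna : ¬ IsMulCommutative T) (h : Real (Grp.psp 3 2) T) :
    Nat.card (Cfsg.Out T) = 1 := by
  obtain ⟨F, i1, i2, hF, ⟨e⟩⟩ := h
  have hs : IsSimpleGroup (PSp 3 F) := e.symm.isSimpleGroup
  have hf : Finite (PSp 3 F) := Finite.of_equiv _ e.toEquiv
  have hna' : ¬ IsMulCommutative (PSp 3 F) := by
    intro h
    apply hna
    refine ⟨⟨fun a b => e.injective ?_⟩⟩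
    rw [map_mul, map_mul]
    exact h.is_comm.comm _ _
  haveI : Fact (Nat.Prime 2) := ⟨Nat.prime_two⟩
  have h1 := Cfsg.Agent.S0814.result (F := F) 2 1 le_rfl (by rw [hF]; norm_num) 3 (by norm_num) (by norm_num)
  rw [H934.OutB.card_out_congr e, H934.OutB.card_out_of_aut hna' h1]
  norm_num

/-- **The small exceptions.** -/
theorem st_small : StSmall.{u} := by
  intro T _ _ _ hna x hx u hch hdvd hu hout h1 h2
  obtain ⟨hn, hp⟩ := smallData_ok x hx
  have hp' : x.2.2.2.1.Prime := by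
    rcases hp with h | h <;> rw [h] <;> norm_num
  rw [ch_eq hn] at hch hdvd h1 h2
  rw [← smallData_map, List.mem_map] at hx
  obtain ⟨y, hy, rfl⟩ := hx
  have hc := List.all_eq_true.1 smallData_chk y hy
  unfold sChk at hc
  rw [Bool.and_eq_true, List.all_eq_true] at hc
  have hna2 : ¬ ∀ a b : T, a * b = b * a := fun h => hna ⟨⟨h⟩⟩
  obtain ⟨g, hg, hr, ho⟩ := exists_good table (Cfsg.Agent.S0000.result (G := T)) hna2 hc.1 hdvd
  have h3 := hc.2 g hg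
  rw [← ho, Bool.or_eq_true, Bool.or_eq_true, Bool.and_eq_true, decide_eq_true_eq] at h3
  rcases h3 with (h3 | h3) | ⟨rfl, h3⟩
  · exfalso
    rw [Nat.mod_eq_zero_of_dvd hch] at h3
    exact absurd h3 (by decide)
  · exact pTest_sound hp' Nat.card_pos h3 hu h1 h2
  · exact (oTest_sound hp' Nat.card_pos h3 hu (hout.trans (out_psp hna hr).le)).elim

end Cfsg.Agent.H283.RkTwo
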